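import Cfsg.Agent.H6.More

set_option autoImplicit false
set_option maxRecDepth 100000

namespace Cfsg.H6.Y332

def R : List (List ℕ) := [[1,2,1,2,1,2], [1,3,1,3], [1,4,1,4], [1,5,1,5], [1,6,1,6], [1,7,1,7], [1,8,1,8], [1,9,1,9], [2,3,2,3,2,3], [2,4,2,4], [2,5,2,5], [2,6,2,6], [2,7,2,7], [2,8,2,8], [2,9,2,9], [3,4,3,4,3,4], [3,5,3,5], [3,6,3,6], [3,7,3,7], [3,8,3,8], [3,9,3,9], [4,5,4,5,4,5], [4,6,4,6], [4,7,4,7], [4,8,4,8,4,8], [4,9,4,9], [5,6,5,6,5,6], [5,7,5,7], [5,8,5,8], [5,9,5,9], [6,7,6,7,6,7], [6,8,6,8], [6,9,6,9], [7,8,7,8], [7,9,7,9], [8,9,8,9,8,9], [4,3,2,4,5,6,4,8,9,4,3,2,4,5,6,4,8,9,4,3,2,4,5,6,4,8,9,4,3,2,4,5,6,4,8,9,4,3,2,4,5,6,4,8,9,4,3,2,4,5,6,4,8,9,4,3,2,4,5,6,4,8,9,4,3,2,4,5,6,4,8,9,4,3,2,4,5,6,4,8,9,4,3,2,4,5,6,4,8,9],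 [1,2,3,4,5,6,8,1,2,3,4,5,6,8,1,2,3,4,5,6,8,1,2,3,4,5,6,8,1,2,3,4,5,6,8,1,2,3,4,5,6,8,1,2,3,4,5,6,8,1,2,3,4,5,6,8,1,2,3,4,5,6,8]]

def R2 : List (List ℕ) := [2,3,4,5,6,7,8,2,3,4,5,6,7,8,2,3,4,5,6,7,8,2,3,4,5,6,7,8,2,3,4,5,6,7,8,2,3,4,5,6,7,8,2,3,4,5,6,7,8,2,3,4,5,6,7,8,2,3,4,5,6,7,8] :: R

end Cfsg.H6.Y332
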