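import Cfsg.Agent.H6.Y332.C1.Main
import Cfsg.Agent.H6.Y332.C2.Main
import Cfsg.Agent.H6.Y332.C3.Main
import Cfsg.Agent.H6.Y332.C4.Main
import Cfsg.Agent.H6.Y332.C5.Main
import Cfsg.Agent.H6.Y332.C6.Main

set_option autoImplicit false
set_option maxRecDepth 100000

namespace Cfsg.H6.Y332

variable {G : Type*} [Group G] {ev : ℕ → G}

theorem ubS7 (hev : Good ev 42649378395939397566720) (hR : Rels ev R) : UB (gen ev C4.X) 5040 :=
  (UB.bot.cover (C5.cover hev hR)).cover (C4.cover hev hR)

theorem ubE7 (hev : Good ev 42649378395939397566720) (hR : Rels ev R) : UB (gen ev C3.X) 2903040 :=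
  (ubS7 hev hR).cover (C3.cover hev hR)

theorem ubB (hev : Good ev 42649378395939397566720) (hR : Rels ev R) : UB (gen ev C2.X) 9170703360 :=
  (ubE7 hev hR).cover (C2.cover hev hR)

theorem ubA (hev : Good ev 42649378395939397566720) (hR : Rels ev R) : UB (gen ev C1.X) 129123503308800 :=
  (ubB hev hR).cover (C1.cover hev hR)

theorem rels_R (hR : Rels ev R2) : Rels ev R := fun r hr => hR r (List.mem_cons_of_mem _ hr)

theorem ubE7' (hev : Good ev 42649378395939397566720) (hR : Rels ev R2) : UB (gen ev C3.X) 1451520 :=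
  (ubS7 hev (rels_R hR)).cover (C6.cover hev hR)

theorem ubB' (hev : Good ev 42649378395939397566720) (hR : Rels ev R2) : UB (gen ev C2.X) 4585351680 :=
  (ubE7' hev hR).cover (C2.cover hev (rels_R hR))

theorem ubA' (hev : Good ev 42649378395939397566720) (hR : Rels ev R2) : UB (gen ev C1.X) 64561751654400 :=
  (ubB' hev hR).cover (C1.cover hev (rels_R hR))

end Cfsg.H6.Y332
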